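import Cfsg.Agent.H46.Order
import Cfsg.Agent.H67.ChevFrob

/-!
# Fixed elements of a field endomorphism, of order prime to the determinant of the Cartan matrix
-/

set_option autoImplicit false

namespace Cfsg.Agent.H88.SylTorus

open Cfsg.Lie Cfsg.Agent.H46 Cfsg.Agent.H65 Cfsg.Agent.H67.Chev
open scoped Matrix MatrixGroups Pointwise

section act

variable {l : ℕ} {A B : Type*} [CommGroup A] [CommGroup B]

/-- The action of a matrix as a homomorphism. -/
def actHom (M : Fin l → Fin l → ℤ) : (Fin l → A) →* (Fin l → A) :=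
  MonoidHom.mk' (act M) fun z w => by funext i; simp [act, mul_zpow, Finset.prod_mul_distrib]

theorem act_comp (M : Fin l → Fin l → ℤ) (f : A →* B) (z : Fin l → A) :
    act M (fun k => f (z k)) = fun i => f (act M z i) := by
  funext i; simp [act, map_prod, map_zpow]

end act

variable {D : ChevalleyDatum} (G : Good D) {F K : Type*} [Field F] [Field K]

include G

theorem torus_eq_of_act {z w : Fin D.rank → Kˣ} (h : act (cartT D G.tab) z = act (cartT D G.tab) w) :
    G.torus z = G.torus w := by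
  have h1 : z * w⁻¹ ∈ (G.torus (F := K)).ker := by
    rw [G.mem_ker_torus, show act (cartT D G.tab) (z * w⁻¹) = actHom (cartT D G.tab) (z * w⁻¹) from rfl, map_mul,
      map_inv]
    exact mul_inv_eq_one.2 h
  rwa [MonoidHom.mem_ker, map_mul, map_inv, mul_inv_eq_one] at h1

theorem act_of_torus_eq {z w : Fin D.rank → Kˣ} (h : G.torus z = G.torus w) :
    act (cartT D G.tab) z = act (cartT D G.tab) w := by
  have h1 : z * w⁻¹ ∈ (G.torus (F := K)).ker := by
    rw [MonoidHom.mem_ker, map_mul, map_inv, h, mul_inv_cancel]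
  rw [G.mem_ker_torus, show act (cartT D G.tab) (z * w⁻¹) = actHom (cartT D G.tab) (z * w⁻¹) from rfl, map_mul,
    map_inv] at h1
  exact mul_inv_eq_one.1 h1

/-- Powers of fixed diagonal elements come from the group over the fixed field. -/
theorem diagonal_pow_mem_map (C : SmithCert) (hC : SmithOk D G.tab C) (hl : C.s.length = D.rank) (ι : F →+* K)
    (τ : K →+* K) (hfix : ∀ x, τ x = x ↔ x ∈ Set.range ι) {d : GL D.Idx K} (hd : d ∈ fixDiag τ) :
    d ^ C.s.prod ∈ (D.group F).map (mapGL D ι) := by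
  classical
  obtain ⟨hdH, hdτ⟩ := mem_fixDiag.1 hd
  obtain ⟨z, rfl⟩ := G.mem_diagonal.1 hdH
  rw [mapGL_torus G] at hdτ
  have hc := act_of_torus_eq G hdτ
  rw [act_comp] at hc
  have hex : ∀ j, ∃ a : Fˣ, Units.map ι.toMonoidHom a = act (cartT D G.tab) z j := fun j => by
    obtain ⟨a, ha⟩ := (hfix _).1 (congrArg Units.val (congrFun hc j))
    exact ⟨Units.mk0 a fun h => (act (cartT D G.tab) z j).ne_zero (by rw [← ha, h, map_zero]), Units.ext ha⟩
  choose a ha using hex
  obtain ⟨h1, h2, h3, h4⟩ := hC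
  have hS : ∀ y : Fin D.rank → Fˣ,
      act (getM C.P) (act (cartT D G.tab) (act (getM C.Q) y)) = fun i => y i ^ C.s.getD i.val 0 := fun y => by
    rw [act_act, act_act, funext fun i => funext (h4 i), act_diag]
    simp only [zpow_natCast]
  set N := C.s.prod
  let y : Fin D.rank → Fˣ := fun i => act (getM C.P) a i ^ (N / C.s.getD i.val 0)
  have hw : act (cartT D G.tab) (act (getM C.Q) y) = a ^ N := by
    have e : act (getM C.P) (act (cartT D G.tab) (act (getM C.Q) y)) = act (getM C.P) (a ^ N) := by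
      rw [hS]
      funext i
      have hi : C.s.getD i.val 0 ∣ N := by
        have hlt : i.val < C.s.length := hl.symm ▸ i.2
        rw [List.getD_eq_getElem?_getD, List.getElem?_eq_getElem hlt, Option.getD_some]
        exact List.dvd_prod (List.getElem_mem hlt)
      rw [show act (getM C.P) (a ^ N) = actHom (getM C.P) (a ^ N) from rfl, map_pow, Pi.pow_apply,
        ← pow_mul, Nat.div_mul_cancel hi]
      rfl
    have e' := congrArg (act (getM C.Pi)) e
    rwa [act_act (M := getM C.Pi), funext fun i => funext (h1 i), act_one, act_act (M := getM C.Pi),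
      funext fun i => funext (h1 i), act_one] at e'
  refine ⟨G.torus (act (getM C.Q) y), G.diagonal_le_group (G.mem_diagonal.2 ⟨_, rfl⟩), ?_⟩
  rw [mapGL_torus G, ← map_pow]
  refine torus_eq_of_act G ?_
  rw [act_comp, hw, show act (cartT D G.tab) (z ^ N) = actHom (cartT D G.tab) (z ^ N) from rfl, map_pow]
  funext i
  rw [Pi.pow_apply, map_pow, ha i, Pi.pow_apply]
  rfl

/-- A fixed element of order prime to the Cartan determinant comes from the group over the fixed field. -/
theorem mem_map_of_fixed (C : SmithCert) (hC : SmithOk D G.tab C) (hl : C.s.length = D.rank) (ι : F →+* K)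
    (τ : K →+* K) (hfix : ∀ x, τ x = x ↔ x ∈ Set.range ι) {x : GL D.Idx K} (hx : x ∈ D.group K)
    (hτ : mapGL D τ x = x) {m : ℕ} (hm : x ^ m = 1) (hco : Nat.Coprime m C.s.prod) :
    x ∈ (D.group F).map (mapGL D ι) := by
  set I := (D.group F).map (mapGL D ι)
  have hgen : fixGen (D := D) τ ≤ I := by
    refine (Subgroup.closure_le _).2 ?_
    rintro g ⟨r, t, ht, hg⟩
    obtain ⟨a, rfl⟩ := (hfix t).1 ht
    exact ⟨G.xg r a, G.xg_mem_group r a, by rw [mapGL_xg G, G.eq_xg hg]⟩
  have hnorm : fixDiag (D := D) τ ≤ Subgroup.normalizer (fixGen (D := D) τ : Set (GL D.Idx K)) := fun d hd => by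
    refine Subgroup.mem_normalizer_iff.2 fun g => ⟨fun hg => fixDiag_conj G τ hd hg, fun hg => ?_⟩
    have := fixDiag_conj G τ (inv_mem hd) hg
    rwa [show d⁻¹ * (d * g * d⁻¹) * d⁻¹⁻¹ = g by group] at this
  have hx' : x ∈ (fixGen (D := D) τ : Set (GL D.Idx K)) * (fixDiag (D := D) τ : Set (GL D.Idx K)) := by
    rw [← Subgroup.coe_mul_of_right_le_normalizer_left _ _ hnorm]
    exact fixed_mem_sup G τ hx hτ
  obtain ⟨g, hg, d, hd, rfl⟩ := Set.mem_mul.1 hx'
  have hpow : ∀ k : ℕ, ∃ g' ∈ fixGen (D := D) τ, (g * d) ^ k = g' * d ^ k := fun k => by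
    induction k with
    | zero => exact ⟨1, one_mem _, by simp⟩
    | succ k ih =>
      obtain ⟨g', hg', e⟩ := ih
      refine ⟨g' * (d ^ k * g * (d ^ k)⁻¹), mul_mem hg' (fixDiag_conj G τ (pow_mem hd k) hg), ?_⟩
      rw [pow_succ, e, pow_succ]
      group
  obtain ⟨g', hg', e⟩ := hpow C.s.prod
  have hmem : (g * d) ^ C.s.prod ∈ I := e ▸ mul_mem (hgen hg') (diagonal_pow_mem_map G C hC hl ι τ hfix hd)
  have hb := Nat.gcd_eq_gcd_ab C.s.prod m
  rw [Nat.Coprime.gcd_eq_one hco.symm] at hb
  have e1 : g * d = ((g * d) ^ C.s.prod) ^ Nat.gcdA C.s.prod m := by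
    conv_lhs => rw [← zpow_one (g * d)]
    rw [show (1 : ℤ) = (C.s.prod : ℤ) * Nat.gcdA C.s.prod m + (m : ℤ) * Nat.gcdB C.s.prod m from
      by simpa using hb, zpow_add, zpow_mul, zpow_mul, zpow_natCast, zpow_natCast, hm, one_zpow, mul_one]
  rw [e1]
  exact zpow_mem hmem _

end Cfsg.Agent.H88.SylTorus
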