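import Mathlib

/-!
# Homocyclic abelian groups from their order and their elements of prime order
-/

set_option autoImplicit false

namespace Cfsg.Agent.H88.SylTorus

variable {A : Type*} [CommGroup A] [Finite A] {r v : ℕ}

/-- If every element of order `r` is an `r ^ (v - 1)`-th power and the exponent divides `r ^ v`, the group is
homocyclic: its order is the `v`-th power of the order of its socle. -/
theorem card_eq_pow (hexp : ∀ x : A, x ^ r ^ v = 1) (hlift : ∀ y : A, y ^ r = 1 → ∃ x : A, x ^ r ^ (v - 1) = y) :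
    Nat.card A = Nat.card (powMonoidHom r : A →* A).ker ^ v := by
  have hroot : ∀ j, j < v → ∀ y : A, y ^ r ^ j = 1 → ∃ x : A, x ^ r = y := by
    intro j
    induction j with
    | zero => intro _ y hy; exact ⟨1, by rw [one_pow]; simpa using hy.symm⟩
    | succ j ih =>
      intro hj y hy
      obtain ⟨x, hx⟩ := hlift (y ^ r ^ j) (by rw [← pow_mul, ← pow_succ]; exact hy)
      obtain ⟨u, hu⟩ := ih (by omega) (y / x ^ r ^ (v - 1 - j)) (by
        rw [div_pow, ← pow_mul, ← pow_add, show v - 1 - j + j = v - 1 by omega, hx, div_self'])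
      refine ⟨u * x ^ r ^ (v - 1 - j - 1), ?_⟩
      rw [mul_pow, hu, ← pow_mul, ← pow_succ, show v - 1 - j - 1 + 1 = v - 1 - j by omega, div_mul_cancel]
  have key : ∀ j ≤ v, Nat.card (powMonoidHom (r ^ j) : A →* A).ker = Nat.card (powMonoidHom r : A →* A).ker ^ j := by
    intro j
    induction j with
    | zero =>
      intro _
      rw [pow_zero, pow_zero, Nat.card_eq_one_iff_unique]
      exact ⟨⟨fun a b => Subtype.ext (by
        have ha : (a : A) ^ 1 = 1 := a.2
        have hb : (b : A) ^ 1 = 1 := b.2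
        rw [pow_one] at ha hb; rw [ha, hb])⟩, ⟨1⟩⟩
    | succ j ih =>
      intro hj
      let ψ : (powMonoidHom (r ^ (j + 1)) : A →* A).ker →* (powMonoidHom (r ^ j) : A →* A).ker :=
        ((powMonoidHom r).comp (Subgroup.subtype _)).codRestrict _ fun x => by
          show ((x : A) ^ r) ^ r ^ j = 1
          rw [← pow_mul, ← pow_succ']
          exact x.2
      have hψ : Function.Surjective ψ := fun y => by
        obtain ⟨x, hx⟩ := hroot j (by omega) y y.2
        exact ⟨⟨x, show x ^ r ^ (j + 1) = 1 by rw [pow_succ', pow_mul, hx]; exact y.2⟩, Subtype.ext hx⟩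
      have hker : Nat.card ψ.ker = Nat.card (powMonoidHom r : A →* A).ker :=
        Nat.card_congr
          { toFun := fun x => ⟨x.1.1, congrArg Subtype.val x.2⟩
            invFun := fun x => ⟨⟨x.1, show (x : A) ^ r ^ (j + 1) = 1 by
              rw [pow_succ', pow_mul, show (x : A) ^ r = 1 from x.2, one_pow]⟩, Subtype.ext x.2⟩
            left_inv := fun _ => rfl
            right_inv := fun _ => rfl }
      rw [← Subgroup.card_mul_index ψ.ker, Subgroup.index_ker, MonoidHom.range_eq_top.2 hψ, Subgroup.card_top,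
        hker, ih (by omega), pow_succ']
  rw [← key v le_rfl, show (powMonoidHom (r ^ v) : A →* A).ker = ⊤ from top_unique fun x _ => hexp x,
    Subgroup.card_top]

/-- A group of order `r ^ (v a)`, exponent dividing `r ^ v` and socle of order at most `r ^ a` is `(ℤ/r^v)^a`. -/
theorem equiv_of_card [hr : Fact r.Prime] (hv : 0 < v) {a : ℕ} (hexp : ∀ x : A, x ^ r ^ v = 1)
    (hcard : Nat.card A = r ^ (v * a)) (hsoc : Nat.card (powMonoidHom r : A →* A).ker ≤ r ^ a) :
    Nonempty (A ≃* (Fin a → Multiplicative (ZMod (r ^ v)))) := by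
  classical
  obtain ⟨ι, _, n, hn, ⟨e⟩⟩ := CommGroup.equiv_prod_multiplicative_zmod_of_finite A
  have hdvd : ∀ i, n i ∣ r ^ v := fun i => by
    have h := congrArg e (hexp (e.symm (Pi.mulSingle i (Multiplicative.ofAdd 1))))
    rw [map_pow, e.apply_symm_apply, map_one e] at h
    have h' : r ^ v • (1 : ZMod (n i)) = 0 := by
      have := congrArg Multiplicative.toAdd (congrFun h i)
      simpa using this
    rw [nsmul_one] at h'
    exact (ZMod.natCast_eq_zero_iff _ _).1 h'
  choose k hkv hk using fun i => (Nat.dvd_prime_pow hr.out).1 (hdvd i)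
  obtain rfl : n = fun i => r ^ k i := funext hk
  dsimp only at *
  have hk0 : ∀ i, 0 < k i := fun i => Nat.pos_of_ne_zero fun h => by simpa [h] using hn i
  have hsum : ∑ i, k i = v * a := by
    refine Nat.pow_right_injective hr.out.two_le ?_
    show r ^ (∑ i, k i) = r ^ (v * a)
    rw [← hcard, Nat.card_congr e.toEquiv, Nat.card_pi, ← Finset.prod_pow_eq_pow_sum]
    refine Finset.prod_congr rfl fun i _ => ?_
    rw [Nat.card_congr Multiplicative.toAdd, Nat.card_zmod]
  have hlow : r ^ Fintype.card ι ≤ r ^ a := by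
    refine le_trans ?_ hsoc
    let g : (ι → ZMod r) → (powMonoidHom r : A →* A).ker := fun c =>
      ⟨e.symm fun i => Multiplicative.ofAdd (((c i).val * r ^ (k i - 1) : ℕ) : ZMod (r ^ k i)), by
        show (e.symm _) ^ r = 1
        rw [← map_pow, MulEquiv.map_eq_one_iff]
        funext i
        rw [Pi.pow_apply, ← ofAdd_nsmul, nsmul_eq_mul, ← Nat.cast_mul, Pi.one_apply, ofAdd_eq_one,
          ZMod.natCast_eq_zero_iff]
        exact Dvd.intro_left (c i).val (by rw [← mul_assoc, mul_comm r, mul_assoc, ← pow_succ',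
          Nat.sub_add_cancel (hk0 i)])⟩
    have hg : Function.Injective g := fun c d h => funext fun i => by
      have h' := congrFun (e.symm.injective (congrArg Subtype.val h)) i
      have h'' := (ZMod.natCast_eq_natCast_iff _ _ _).1 (Multiplicative.ofAdd.injective h')
      have hpos : 0 < r ^ (k i - 1) := pow_pos hr.out.pos _
      have he : r ^ k i = r * r ^ (k i - 1) := by rw [← pow_succ', Nat.sub_add_cancel (hk0 i)]
      dsimp only at h'' ⊢
      rw [Nat.ModEq, he, Nat.mul_mod_mul_right, Nat.mul_mod_mul_right] at h''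
      refine ZMod.val_injective r ?_
      rwa [Nat.mul_left_inj hpos.ne', Nat.mod_eq_of_lt (ZMod.val_lt _), Nat.mod_eq_of_lt (ZMod.val_lt _)] at h''
    have := Nat.card_le_card_of_injective g hg
    rwa [Nat.card_fun, Nat.card_zmod, Nat.card_eq_fintype_card (α := ι)] at this
  have hι : Fintype.card ι ≤ a := (Nat.pow_le_pow_iff_right hr.out.one_lt).1 hlow
  have hle : ∑ i, k i ≤ v * Fintype.card ι := by
    simpa [mul_comm] using Finset.sum_le_sum fun i (_ : i ∈ Finset.univ) => hkv i
  have hιa : Fintype.card ι = a := le_antisymm hι (Nat.le_of_mul_le_mul_left (hsum ▸ hle) hv)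
  obtain rfl : k = fun _ => v := funext fun i => by
    by_contra h
    have : ∑ i, k i < ∑ _i : ι, v := Finset.sum_lt_sum (fun i _ => hkv i) ⟨i, Finset.mem_univ i,
      lt_of_le_of_ne (hkv i) h⟩
    rw [hsum, Finset.sum_const, Finset.card_univ, hιa, smul_eq_mul, mul_comm] at this
    exact lt_irrefl _ this
  exact ⟨e.trans (MulEquiv.arrowCongr (Fintype.equivFinOfCardEq hιa) (MulEquiv.refl _))⟩

/-- The socle of a commutative `r`-subgroup of exponent `r ^ v` all of whose socle elements are powers. -/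
theorem socle_card_le {Γ : Type*} [Group Γ] [hr : Fact r.Prime] (hv : 0 < v) {a : ℕ} {U S : Subgroup Γ} [Finite U]
    (hcomm : ∀ x ∈ U, ∀ y ∈ U, x * y = y * x) (hexp : ∀ x ∈ U, x ^ r ^ v = 1)
    (hS : ∀ y, y ∈ S ↔ y ∈ U ∧ y ^ r = 1) (hlift : ∀ y ∈ S, ∃ x ∈ U, x ^ r ^ (v - 1) = y)
    (hcard : ∀ k, Nat.card U = r ^ k → k ≤ v * a) : Finite S ∧ Nat.card S ≤ r ^ a := by
  letI : CommGroup U :=
    { (inferInstance : Group U) with mul_comm := fun x y => Subtype.ext (hcomm x x.2 y y.2) }
  let e : (powMonoidHom r : U →* U).ker ≃ S :=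
    { toFun := fun y => ⟨y.1.1, (hS _).2 ⟨y.1.2, congrArg Subtype.val (show (y : U) ^ r = 1 from y.2)⟩⟩
      invFun := fun y => ⟨⟨y.1, ((hS _).1 y.2).1⟩, Subtype.ext ((hS _).1 y.2).2⟩
      left_inv := fun _ => rfl
      right_inv := fun _ => rfl }
  refine ⟨Finite.of_equiv _ e, ?_⟩
  have h1 : ∀ x : U, x ^ r ^ v = 1 := fun x => Subtype.ext (hexp x x.2)
  obtain ⟨k, hk⟩ := IsPGroup.iff_card.1 (show IsPGroup r U from fun x => ⟨v, h1 x⟩)
  have hle : Nat.card U ≤ r ^ (v * a) := hk ▸ Nat.pow_le_pow_right hr.out.pos (hcard k hk)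
  rw [card_eq_pow h1 (fun y hy => by
    obtain ⟨x, hx, hxy⟩ := hlift y ((hS _).2 ⟨y.2, congrArg Subtype.val hy⟩)
    exact ⟨⟨x, hx⟩, Subtype.ext hxy⟩), mul_comm, pow_mul, Nat.card_congr e] at hle
  exact (Nat.pow_le_pow_iff_left hv.ne').1 hle

end Cfsg.Agent.H88.SylTorus
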