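import Cfsg.Agent.H88.SylTorus.TwistedTorus

/-!
# Sylow `r`-subgroups of Chevalley groups, `r` prime to `q |W|`, are homocyclic
-/

set_option autoImplicit false

namespace Cfsg.Agent.H88.SylTorus

open Cfsg.Lie Cfsg.Agent.H46 Cfsg.Agent.H65 Cfsg.Agent.H67.Chev Cfsg.Agent.H88.AutSec Cfsg.Agent.H88.ChevSylow
open scoped Matrix MatrixGroups

variable {D : ChevalleyDatum} (G : Good D) {F : Type*} [Field F] [Fintype F]

include G

theorem torus_pow_eq_one {K : Type*} [Field K] [Fintype K] {r v : ℕ} [hr : Fact r.Prime]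
    (hK : padicValNat r (Fintype.card K - 1) = v) {x : GL D.Idx K} (hx : x ∈ D.diagonalSubgroup K) {k : ℕ}
    (hk : x ^ r ^ k = 1) : x ^ r ^ v = 1 := by
  classical
  obtain ⟨z, rfl⟩ := G.mem_diagonal.1 hx
  rw [← map_pow, ← map_one (G.torus (F := K))] at hk ⊢
  have h1 := act_of_torus_eq G hk
  refine torus_eq_of_act G ?_
  funext i
  have hu := congrFun h1 i
  rw [act_map_one, show act (cartT D G.tab) (z ^ r ^ k) = actHom (cartT D G.tab) (z ^ r ^ k) from rfl, map_pow,
    Pi.pow_apply, Pi.one_apply] at hu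
  rw [act_map_one, show act (cartT D G.tab) (z ^ r ^ v) = actHom (cartT D G.tab) (z ^ r ^ v) from rfl, map_pow,
    Pi.pow_apply, Pi.one_apply]
  set u := actHom (cartT D G.tab) z i
  have hq : u ^ (Fintype.card K - 1) = 1 := by rw [← Fintype.card_units]; exact pow_card_eq_one
  obtain ⟨l, -, hl⟩ := (Nat.dvd_prime_pow hr.out).1 (orderOf_dvd_of_pow_eq_one hu)
  refine orderOf_dvd_iff_pow_eq_one.1 (hl ▸ pow_dvd_pow r (hK ▸ ?_))
  have hne : Fintype.card K - 1 ≠ 0 := by have := Fintype.one_lt_card (α := K); omega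
  exact (padicValNat_dvd_iff_le hne).1 (hl ▸ orderOf_dvd_of_pow_eq_one hq)

theorem commute_of_conj_diagonal {K : Type*} [Field K] {P : Type*} [Group P] (ι : P →* ↥(D.group K))
    (hι : Function.Injective ι) (g : ↥(D.group K))
    (hg : ∀ x, ((g * ι x * g⁻¹ : ↥(D.group K)) : GL D.Idx K) ∈ D.diagonalSubgroup K) (a b : P) : a * b = b * a := by
  have h := G.diagonal_comm (hg a) (hg b)
  apply hι
  rw [← Subgroup.coe_mul, ← Subgroup.coe_mul] at h
  have h' := Subtype.ext h
  rw [map_mul, map_mul]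
  calc ι a * ι b = g⁻¹ * (g * ι a * g⁻¹ * (g * ι b * g⁻¹)) * g := by group
    _ = g⁻¹ * (g * ι b * g⁻¹ * (g * ι a * g⁻¹)) * g := by rw [h']
    _ = ι b * ι a := by group

/-- The Sylow `r`-subgroups of the Chevalley group. -/
theorem sylow_equiv {cert : List (List (ℕ × ℕ))} {degs : List ℕ} (hW : chkWeyl D G.tab cert = true)
    (hdeg : chkDegrees cert D.rank degs = true) (hcardW : evP (chainPoly cert D.rank) (1 : ℤ) = (degs.prod : ℕ))
    (C : SmithCert) (hC : SmithOk D G.tab C) (hl : C.s.length = D.rank) (hs : C.s.prod ∣ degs.prod)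
    {q : ℕ} (hq : Fintype.card F = q) (r : ℕ) [hr : Fact r.Prime] (hrq : ¬ r ∣ q) (hrW : ¬ r ∣ degs.prod)
    (P : Sylow r ↥(D.group F)) :
    Nonempty (↥(P : Subgroup ↥(D.group F)) ≃*
      (Fin (degs.filter (fun e => orderOf (q : ZMod r) ∣ e)).length →
        Multiplicative (ZMod (r ^ padicValNat r ((Polynomial.cyclotomic (orderOf (q : ZMod r)) ℤ).eval (q : ℤ)).natAbs)))) := by
  classical
  subst hq
  set q := Fintype.card F with hqdef
  have hq2 : 2 ≤ q := Fintype.one_lt_card
  rw [← padicValNat_order hq2 hrq]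
  set e := orderOf (q : ZMod r) with he
  set v := padicValNat r (q ^ e - 1) with hvdef
  set a := (degs.filter (fun e' => e ∣ e')).length
  have hv : 0 < v := padicValNat_order_pos hq2 hrq
  have he0 : 0 < e := order_pos hrq
  have hfW : ¬ r ∣ (G.finW D.rank).card := by rw [finW_card G hW hcardW]; exact hrW
  have hrs : ¬ r ∣ C.s.prod := fun h => hrW (h.trans hs)
  -- the order
  have hcard : (Nat.card ↥(D.group F)).factorization r = v * a := by
    have h := G.card_group_mul (F := F) hW hdeg C hC hl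
    have h1 : ¬ r ∣ (C.s.map fun s => (q - 1).gcd s).prod := fun hd => by
      obtain ⟨x, hx, hxr⟩ := hr.out.prime.dvd_prod_iff.1 hd
      obtain ⟨s, hs', rfl⟩ := List.mem_map.1 hx
      exact hrs ((hxr.trans (Nat.gcd_dvd_right _ _)).trans (List.dvd_prod hs'))
    have h2 : ¬ r ∣ q ^ (D.nroots / 2) := fun hd => hrq (hr.out.dvd_of_dvd_pow hd)
    have h3 := congrArg (padicValNat r) h
    have h1' : (C.s.map fun s => (q - 1).gcd s).prod ≠ 0 := fun h0 => h1 (by rw [h0]; exact dvd_zero r)
    have h2' : q ^ (D.nroots / 2) ≠ 0 := fun h0 => h2 (by rw [h0]; exact dvd_zero r)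
    rw [padicValNat.mul h1' Nat.card_pos.ne', padicValNat.eq_zero_of_not_dvd h1,
      zero_add, padicValNat.mul h2' (fun h0 => by
        rw [h0, mul_zero] at h
        exact (mul_ne_zero h1' Nat.card_pos.ne') h),
      padicValNat.eq_zero_of_not_dvd h2, zero_add, padicValNat_prod hq2 hrq degs hrW] at h3
    rw [Nat.factorization_def _ hr.out, h3]
  -- the extension field
  obtain ⟨p, hp⟩ := CharP.exists F
  haveI : Fact p.Prime := ⟨CharP.char_is_prime F p⟩
  haveI : NeZero e := ⟨he0.ne'⟩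
  let K := FiniteField.Extension F p e
  haveI : Fintype K := Fintype.ofFinite K
  have hKcard : Fintype.card K = q ^ e := by
    rw [Fintype.card_eq_nat_card, FiniteField.natCard_extension, Nat.card_eq_fintype_card]
  set f := algebraMap F K
  set ι := (mapHom D f).comp (P : Subgroup ↥(D.group F)).subtype with hι
  have hιinj : Function.Injective ι := (mapHom_injective D f).comp Subtype.val_injective
  obtain ⟨g, hg'⟩ := exists_conj_diagonal G (F := K) (ℓ := r)
    (by rw [hKcard]; exact (dvd_pow_sub_one_iff (by omega) e).2 dvd_rfl) hfW (P.2.map (mapHom D f))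
  have hg : ∀ x, ((g * ι x * g⁻¹ : ↥(D.group K)) : GL D.Idx K) ∈ D.diagonalSubgroup K :=
    fun x => hg' _ ⟨x, x.2, rfl⟩
  let Y : ↥(P : Subgroup ↥(D.group F)) →* GL D.Idx K :=
    (D.group K).subtype.comp ((MulAut.conj g).toMonoidHom.comp ι)
  have hY : Function.Injective Y := Subtype.val_injective.comp ((MulAut.conj g).injective.comp hιinj)
  letI : CommGroup ↥(P : Subgroup ↥(D.group F)) :=
    { (inferInstance : Group ↥(P : Subgroup ↥(D.group F))) with mul_comm := commute_of_conj_diagonal G ι hιinj g hg }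
  have hexp : ∀ x : ↥(P : Subgroup ↥(D.group F)), x ^ r ^ v = 1 := fun x => by
    obtain ⟨k, hk⟩ := P.2 x
    refine hY ?_
    rw [map_pow, map_one]
    exact torus_pow_eq_one G (hKcard ▸ rfl) (hg x) (by rw [← map_pow, hk, map_one])
  -- the Frobenius map acts on the torus as a monomial element
  let φ : K →+* K := (FiniteField.frobeniusAlgHom F K : K →+* K)
  have hφ : ∀ x, φ x = x ^ q := fun x => rfl
  let gg : GL D.Idx K := g
  have hφg : mapGL D φ gg * gg⁻¹ ∈ D.group K :=
    mul_mem (mapGL_mem_group φ g.2) (inv_mem g.2)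
  obtain ⟨n, hn, hfus⟩ := exists_monomial G hφg
  have hYtwist : ∀ x, n * Y x * n⁻¹ = Y x ^ q := fun x => by
    have hYT : Y x ∈ D.diagonalSubgroup K := hg x
    have hφY : mapGL D φ (Y x) = Y x ^ q := by
      obtain ⟨z, hz⟩ := G.mem_diagonal.1 hYT
      rw [hz, mapGL_torus G, ← map_pow]
      exact congrArg _ (funext fun i => Units.ext (by simp [hφ]))
    have hfixι : mapGL D φ (ι x : GL D.Idx K) = (ι x : GL D.Idx K) := by
      refine Units.ext ?_
      ext i j
      show φ (algebraMap F K _) = algebraMap F K _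
      rw [hφ, ← map_pow, hqdef, FiniteField.pow_card]
    have e1 : Y x = gg * (ι x : GL D.Idx K) * gg⁻¹ := rfl
    have e2 : mapGL D φ gg * gg⁻¹ * Y x * (mapGL D φ gg * gg⁻¹)⁻¹ = Y x ^ q := by
      rw [← hφY, e1, map_mul, map_mul, map_inv, hfixι]
      group
    rw [hfus _ hYT (e2 ▸ pow_mem hYT q), e2]
  let j : K →ₐ[F] AlgebraicClosure F := IsAlgClosed.lift
  set J := mapGL D (j : K →+* AlgebraicClosure F)
  have hJn : J n ∈ D.monomialSubgroup (AlgebraicClosure F) := by
    obtain ⟨L, d, hd, rfl⟩ := G.exists_word hn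
    rw [map_mul, mapGL_nProd G]
    exact mul_mem (G.nProd_mem L) (by rw [G.monomial_eq]; exact Subgroup.mem_sup_left (mapGL_diagonal G _ hd))
  obtain ⟨hfin, hsoc⟩ := socle_bound G C hC hl hv pow_padicValNat_dvd hrs hfW hcard hJn
  haveI := hfin
  refine equiv_of_card hv hexp ?_ (le_trans ?_ hsoc)
  · rw [Sylow.card_eq_multiplicity, hcard]
  · let s : (powMonoidHom r : ↥(P : Subgroup ↥(D.group F)) →* _).ker → ↥(twist G (J n) q r) := fun x =>
      ⟨J (Y x.1), mapGL_diagonal G _ (hg x.1), by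
        rw [← map_pow, ← map_pow, show x.1 ^ r = 1 from x.2, map_one, map_one], by
        rw [← map_inv, ← map_mul, ← map_mul, hYtwist, map_pow]⟩
    exact Nat.card_le_card_of_injective s fun x y h =>
      Subtype.ext (hY (mapGL_injective _ (congrArg Subtype.val h)))

end Cfsg.Agent.H88.SylTorus
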