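import Mathlib

/-!
# The `r`-part of the products of `q ^ d - 1`
-/

set_option autoImplicit false

namespace Cfsg.Agent.H88.SylTorus

open Polynomial

variable {q r : ℕ} [hr : Fact r.Prime]

theorem order_pos (hrq : ¬ r ∣ q) : 0 < orderOf (q : ZMod r) :=
  orderOf_pos_iff.2 (isOfFinOrder_iff_pow_eq_one.2 ⟨r - 1, Nat.sub_pos_of_lt hr.out.one_lt,
    ZMod.pow_card_sub_one_eq_one fun h => hrq ((ZMod.natCast_eq_zero_iff _ _).1 h)⟩)

theorem dvd_pow_sub_one_iff (hq : 1 ≤ q) (d : ℕ) : r ∣ q ^ d - 1 ↔ orderOf (q : ZMod r) ∣ d := by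
  rw [← ZMod.natCast_eq_zero_iff, Nat.cast_sub (Nat.one_le_pow _ _ hq), sub_eq_zero, Nat.cast_pow, Nat.cast_one,
    orderOf_dvd_iff_pow_eq_one]

/-- The exponent of `r` in `q ^ e - 1` is that in `Φ_e(q)`. -/
theorem padicValNat_order (hq : 2 ≤ q) (hrq : ¬ r ∣ q) :
    padicValNat r (q ^ orderOf (q : ZMod r) - 1) =
      padicValNat r ((cyclotomic (orderOf (q : ZMod r)) ℤ).eval (q : ℤ)).natAbs := by
  classical
  set e := orderOf (q : ZMod r)
  have he : 0 < e := order_pos hrq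
  have hprod : ∀ n, 0 < n → ∏ d ∈ n.divisors, ((cyclotomic d ℤ).eval (q : ℤ)).natAbs = q ^ n - 1 := fun n hn => by
    have h := congrArg (fun p : ℤ[X] => (p.eval (q : ℤ)).natAbs) (prod_cyclotomic_eq_X_pow_sub_one hn ℤ)
    simp only [eval_prod, eval_sub, eval_pow, eval_X, eval_one] at h
    rw [show (∏ d ∈ n.divisors, ((cyclotomic d ℤ).eval (q : ℤ)).natAbs) = (∏ d ∈ n.divisors, (cyclotomic d ℤ).eval (q : ℤ)).natAbs from (map_prod Int.natAbsHom _ _).symm, h, show (q : ℤ) ^ n - 1 = ((q ^ n - 1 : ℕ) : ℤ) by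
      rw [Nat.cast_sub (Nat.one_le_pow _ _ (by omega))]; push_cast; ring, Int.natAbs_natCast]
  have hne : q ^ e - 1 ≠ 0 := by
    have := Nat.one_lt_pow he.ne' (by omega : 1 < q)
    omega
  have hsplit := hprod e he
  rw [← Finset.mul_prod_erase _ _ (Nat.mem_divisors_self e he.ne')] at hsplit
  rw [← hsplit] at hne ⊢
  rw [padicValNat.mul (left_ne_zero_of_mul hne) (right_ne_zero_of_mul hne),
    padicValNat.eq_zero_of_not_dvd (n := ∏ d ∈ e.divisors.erase e, _), add_zero]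
  rw [hr.out.prime.dvd_finset_prod_iff]
  rintro ⟨d, hd, hdvd⟩
  obtain ⟨hde, hd'⟩ := Finset.mem_erase.1 hd
  obtain ⟨hdvde, -⟩ := Nat.mem_divisors.1 hd'
  have hd0 : 0 < d := Nat.pos_of_dvd_of_pos hdvde he
  have h2 : r ∣ q ^ d - 1 := hdvd.trans (hprod d hd0 ▸ Finset.dvd_prod_of_mem _ (Nat.mem_divisors_self d hd0.ne'))
  exact hde (Nat.dvd_antisymm hdvde ((dvd_pow_sub_one_iff (by omega) d).1 h2))

theorem padicValNat_order_pos (hq : 2 ≤ q) (hrq : ¬ r ∣ q) :
    0 < padicValNat r (q ^ orderOf (q : ZMod r) - 1) := by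
  have he : 0 < orderOf (q : ZMod r) := order_pos hrq
  have := Nat.one_lt_pow he.ne' (by omega : 1 < q)
  exact one_le_padicValNat_of_dvd (by omega) ((dvd_pow_sub_one_iff (by omega) _).2 dvd_rfl)

theorem padicValNat_pow_sub_one (hq : 2 ≤ q) (hrq : ¬ r ∣ q) {d : ℕ} (hd : ¬ r ∣ d) :
    padicValNat r (q ^ d - 1) =
      if orderOf (q : ZMod r) ∣ d then padicValNat r (q ^ orderOf (q : ZMod r) - 1) else 0 := by
  set e := orderOf (q : ZMod r)
  split_ifs with h
  · obtain ⟨k, rfl⟩ := h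
    have hk : ¬ r ∣ k := fun hk => hd (hk.mul_left e)
    rw [pow_mul]
    set x := q ^ e with hx
    have hx2 : 2 ≤ x := le_trans hq (le_self_pow₀ (by omega) (order_pos hrq).ne')
    have hx1 : (x : ZMod r) = 1 := by rw [hx, Nat.cast_pow, pow_orderOf_eq_one]
    have hgeom : (x - 1) * ∑ i ∈ Finset.range k, x ^ i = x ^ k - 1 := by
      have h1 := geom_sum_mul_add (x - 1) k
      rw [Nat.sub_add_cancel (by omega : 1 ≤ x)] at h1
      rw [mul_comm, ← h1, Nat.add_sub_cancel]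
    have hS : ¬ r ∣ ∑ i ∈ Finset.range k, x ^ i := by
      rw [← ZMod.natCast_eq_zero_iff]
      push_cast
      simpa [hx1, ZMod.natCast_eq_zero_iff] using hk
    have hS0 : (∑ i ∈ Finset.range k, x ^ i) ≠ 0 := fun h0 => hS (by rw [h0]; exact dvd_zero r)
    rw [← hgeom, padicValNat.mul (show x - 1 ≠ 0 by omega) hS0,
      padicValNat.eq_zero_of_not_dvd hS, add_zero]
  · exact padicValNat.eq_zero_of_not_dvd fun hdvd => h ((dvd_pow_sub_one_iff (by omega) d).1 hdvd)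

theorem padicValNat_prod (hq : 2 ≤ q) (hrq : ¬ r ∣ q) : ∀ L : List ℕ, ¬ r ∣ L.prod →
    padicValNat r (L.map fun d => q ^ d - 1).prod =
      padicValNat r (q ^ orderOf (q : ZMod r) - 1) * (L.filter fun d => orderOf (q : ZMod r) ∣ d).length
  | [], _ => by simp
  | d :: L, h => by
    rw [List.prod_cons] at h
    have hd : ¬ r ∣ d := fun h' => h (h'.mul_right _)
    have hpos : ∀ d, ¬ r ∣ d → q ^ d - 1 ≠ 0 := fun d hd => by
      have := Nat.one_lt_pow (fun h0 : d = 0 => hd (h0 ▸ dvd_zero r)) (by omega : 1 < q)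
      omega
    have hL : (L.map fun d => q ^ d - 1).prod ≠ 0 := by
      rw [ne_eq, List.prod_eq_zero_iff, List.mem_map]
      rintro ⟨d', hd', h0⟩
      exact hpos d' (fun h' => h ((h'.trans (List.dvd_prod hd')).mul_left _)) h0
    rw [List.map_cons, List.prod_cons, padicValNat.mul (hpos d hd) hL,
      padicValNat_prod hq hrq L (fun h' => h (h'.mul_left _)), padicValNat_pow_sub_one hq hrq hd,
      List.filter_cons]
    by_cases he : orderOf (q : ZMod r) ∣ d
    · simp [he]; ring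
    · simp [he]

end Cfsg.Agent.H88.SylTorus
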