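import Cfsg.Agent.H67.ChevTorusAdj
import Cfsg.Agent.H88.AltSec.ChevExt
import Cfsg.Agent.H88.SylTorus.FixedPoints
import Cfsg.Agent.H88.SylTorus.Homocyclic
import Cfsg.Agent.H88.SylTorus.Numbers

/-!
# The `r`-parts of the twisted tori, `r` prime to `|W|`

For a monomial `n` the elements `y` of exponent `r ^ v` of the torus with `n y n⁻¹ = y ^ q` form a homocyclic group
which, by Lang's theorem, is isomorphic to a subgroup of the group over the field of `q` elements.
-/

set_option autoImplicit false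

namespace Cfsg.Agent.H88.SylTorus

open Cfsg.Lie Cfsg.Agent.H46 Cfsg.Agent.H65 Cfsg.Agent.H67.Chev Cfsg.Agent.H88.ChevSylow
open scoped Matrix MatrixGroups

variable {D : ChevalleyDatum} (G : Good D) {K : Type*} [Field K]

/-- The elements of exponent `k` of the torus on which `n` acts as the power `q`. -/
def twist (n : GL D.Idx K) (q k : ℕ) : Subgroup (GL D.Idx K) where
  carrier := {y | y ∈ D.diagonalSubgroup K ∧ y ^ k = 1 ∧ n * y * n⁻¹ = y ^ q}
  mul_mem' {a b} ha hb := by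
    have hc : Commute a b := G.diagonal_comm ha.1 hb.1
    refine ⟨mul_mem ha.1 hb.1, by rw [hc.mul_pow, ha.2.1, hb.2.1, one_mul], ?_⟩
    rw [hc.mul_pow, ← ha.2.2, ← hb.2.2]
    group
  one_mem' := ⟨one_mem _, one_pow _, by rw [mul_one, mul_inv_cancel, one_pow]⟩
  inv_mem' {a} ha := ⟨inv_mem ha.1, by rw [inv_pow, ha.2.1, inv_one], by rw [inv_pow, ← ha.2.2]; group⟩

include G

theorem orderOf_perm_dvd {n : GL D.Idx K} (hn : n ∈ D.monomialSubgroup K) :
    orderOf (G.perm n) ∣ (G.finW D.rank).card := by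
  classical
  have hone : (1 : Equiv.Perm (Fin D.nroots)) ∈ G.Wk D.rank := ⟨[], by simp, rfl⟩
  have hmul : ∀ a ∈ G.Wk D.rank, ∀ b ∈ G.Wk D.rank, a * b ∈ G.Wk D.rank := by
    rintro _ ⟨u, hu, rfl⟩ _ ⟨w, hw, rfl⟩
    exact ⟨u ++ w, fun i hi => (List.mem_append.1 hi).elim (hu i) (hw i), (G.permW_append u w).symm⟩
  have hpow : ∀ a ∈ G.Wk D.rank, ∀ k : ℕ, a ^ k ∈ G.Wk D.rank := fun a ha k => by
    induction k with
    | zero => rw [pow_zero]; exact hone
    | succ k ih => rw [pow_succ]; exact hmul _ ih _ ha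
  let S : Subgroup (Equiv.Perm (Fin D.nroots)) :=
    { carrier := G.Wk D.rank
      mul_mem' := fun ha hb => hmul _ ha _ hb
      one_mem' := hone
      inv_mem' := fun {a} ha => by
        rw [show a⁻¹ = a ^ (orderOf a - 1) from inv_eq_of_mul_eq_one_right (by
          rw [← pow_succ', Nat.sub_add_cancel (orderOf_pos a), pow_orderOf_eq_one])]
        exact hpow a ha _ }
  have h := orderOf_dvd_natCard (⟨G.perm n, (G.mem_finW).1 (G.perm_mem_finW hn)⟩ : S)
  rw [← Subgroup.orderOf_coe] at h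
  have hcard : Nat.card S = (G.finW D.rank).card := by
    rw [← Nat.card_eq_finsetCard]
    exact Nat.card_congr (Equiv.subtypeEquivRight fun σ => (G.mem_finW).symm)
  rwa [hcard] at h

theorem exists_pow_eq_diagonal [IsAlgClosed K] {y : GL D.Idx K} (hy : y ∈ D.diagonalSubgroup K) {k : ℕ}
    (hk : 0 < k) : ∃ x ∈ D.diagonalSubgroup K, x ^ k = y := by
  obtain ⟨z, rfl⟩ := G.mem_diagonal.1 hy
  choose x hx using fun i => IsAlgClosed.exists_pow_nat_eq (z i : K) hk
  refine ⟨G.torus fun i => Units.mk0 (x i) fun h => (z i).ne_zero (by rw [← hx i, h, zero_pow hk.ne']),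
    G.mem_diagonal.2 ⟨_, rfl⟩, ?_⟩
  rw [← map_pow]
  exact congrArg _ (funext fun i => Units.ext (by simp [hx i]))

set_option maxHeartbeats 1000000 in
/-- Roots inside the twisted torus. -/
theorem exists_root_twist [IsAlgClosed K] {r v q : ℕ} [hr : Fact r.Prime] (hv : 0 < v)
    (hqv : r ^ v ∣ q ^ orderOf (q : ZMod r) - 1) (hq : 1 ≤ q) {n : GL D.Idx K} (hn : n ∈ D.monomialSubgroup K)
    (hW : ¬ r ∣ (G.finW D.rank).card) {y : GL D.Idx K} (hy : y ∈ twist G n q r) :
    ∃ x ∈ twist G n q (r ^ v), x ^ r ^ (v - 1) = y := by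
  classical
  by_cases hy1 : y = 1
  · exact ⟨1, one_mem _, by rw [one_pow, hy1]⟩
  obtain ⟨hyT, hyr, hyn⟩ := hy
  set m := orderOf (G.perm n) with hm
  have hm0 : 0 < m := orderOf_pos _
  have hrm : ¬ r ∣ m := fun h => hW (h.trans (orderOf_perm_dvd G hn))
  have hcen : ∀ t ∈ D.diagonalSubgroup K, n ^ m * t * (n ^ m)⁻¹ = t := fun t ht => by
    rw [commute_of_perm_eq_one G (pow_mem hn m) ht (by rw [perm_pow G hn, hm, pow_orderOf_eq_one]),
      mul_inv_cancel_right]
  have hiter : ∀ i : ℕ, n ^ i * y * (n ^ i)⁻¹ = y ^ q ^ i := fun i => by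
    induction i with
    | zero => simp
    | succ i ih =>
      calc n ^ (i + 1) * y * (n ^ (i + 1))⁻¹ = n * (n ^ i * y * (n ^ i)⁻¹) * n⁻¹ := by rw [pow_succ']; group
        _ = (n * y * n⁻¹) ^ q ^ i := by rw [ih, conj_pow]
        _ = _ := by rw [hyn, ← pow_mul, pow_succ']
  have hyqm : y ^ q ^ m = y := by rw [← hiter m, hcen y hyT]
  have horder : orderOf y = r := orderOf_eq_prime hyr hy1
  have hem : orderOf (q : ZMod r) ∣ m := by
    rw [← dvd_pow_sub_one_iff hq, ← horder, orderOf_dvd_iff_pow_eq_one, pow_sub _ (Nat.one_le_pow _ _ hq), hyqm,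
      pow_one, mul_inv_cancel]
  have hqm : r ^ v ∣ q ^ m - 1 := by
    obtain ⟨k, hk⟩ := hem
    rw [hk, pow_mul]
    exact hqv.trans (by simpa using Nat.sub_dvd_pow_sub_pow (q ^ orderOf (q : ZMod r)) 1 k)
  obtain ⟨m', -, hm'⟩ := Nat.exists_mul_mod_eq_one_of_coprime
    ((hr.out.coprime_iff_not_dvd.2 hrm).symm) hr.out.one_lt
  obtain ⟨x₀, hx₀T, hx₀⟩ := exists_pow_eq_diagonal G hyT (pow_pos hr.out.pos (v - 1))
  have hx₀v : x₀ ^ r ^ v = 1 := by
    rw [show v = v - 1 + 1 by omega, pow_succ, pow_mul, hx₀, hyr]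
  let T := D.diagonalSubgroup K
  letI : CommGroup T := { (inferInstance : Group T) with mul_comm := fun a b => Subtype.ext (G.diagonal_comm a.2 b.2) }
  let κ : T →* T :=
    ((MulAut.conj n).toMonoidHom.comp T.subtype).codRestrict T fun t => G.diagonal_normalized hn t.2
  let it : ℕ → T := fun i => ⟨n ^ i * x₀ * (n ^ i)⁻¹, G.diagonal_normalized (pow_mem hn i) hx₀T⟩
  have hκ : ∀ i, κ (it i) = it (i + 1) := fun i => Subtype.ext (by
    show n * (n ^ i * x₀ * (n ^ i)⁻¹) * n⁻¹ = n ^ (i + 1) * x₀ * (n ^ (i + 1))⁻¹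
    rw [pow_succ']; group)
  let g : ℕ → T := fun i => it i ^ (m' * q ^ (m + 1 - i))
  have hit_v : ∀ i, it i ^ r ^ v = 1 := fun i => Subtype.ext (by
    show (n ^ i * x₀ * (n ^ i)⁻¹) ^ r ^ v = 1
    rw [conj_pow, hx₀v, mul_one, mul_inv_cancel])
  set Z : T := ∏ i ∈ Finset.range m, it i ^ (m' * q ^ (m - i)) with hZ
  have hZq : Z ^ q = ∏ i ∈ Finset.range m, g i := by
    rw [hZ, ← Finset.prod_pow]
    refine Finset.prod_congr rfl fun i hi => ?_
    show _ = it i ^ _
    rw [← pow_mul, show m + 1 - i = m - i + 1 by have := Finset.mem_range.1 hi; omega, pow_succ, mul_assoc]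
  have hκZ : κ Z = ∏ i ∈ Finset.range m, g (i + 1) := by
    rw [hZ, map_prod]
    refine Finset.prod_congr rfl fun i _ => ?_
    show _ = it (i + 1) ^ _
    rw [map_pow, hκ, show m + 1 - (i + 1) = m - i by omega]
  have hg0 : g m = g 0 := by
    have e : it m = it 0 := Subtype.ext (by
      show n ^ m * x₀ * (n ^ m)⁻¹ = n ^ 0 * x₀ * (n ^ 0)⁻¹
      rw [hcen x₀ hx₀T]; simp)
    show it m ^ _ = it 0 ^ _
    rw [e, Nat.sub_zero, show m + 1 - m = 1 by omega]
    refine pow_eq_pow_of_modEq ?_ (hit_v 0)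
    refine Nat.ModEq.mul_left m' ?_
    have h1 : q ^ m ≡ 1 [MOD r ^ v] := ((Nat.modEq_iff_dvd' (Nat.one_le_pow _ _ hq)).2 hqm).symm
    simpa [pow_succ] using (h1.mul_right q).symm
  have hZκ : κ Z = Z ^ q := by
    rw [hκZ, hZq]
    have h1 := Finset.prod_range_succ' g m
    rw [Finset.prod_range_succ, hg0] at h1
    exact (mul_right_cancel h1).symm
  refine ⟨Z, ⟨Z.2, ?_, congrArg Subtype.val hZκ⟩, ?_⟩
  · rw [← Subgroup.coe_pow, show Z ^ r ^ v = 1 by
      rw [hZ, ← Finset.prod_pow]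
      exact Finset.prod_eq_one fun i _ => by rw [← pow_mul, mul_comm, pow_mul, hit_v, one_pow], Subgroup.coe_one]
  · have hy' : ∀ i, it i ^ r ^ (v - 1) = (⟨y, hyT⟩ : T) ^ q ^ i := fun i => Subtype.ext (by
      show (n ^ i * x₀ * (n ^ i)⁻¹) ^ r ^ (v - 1) = y ^ q ^ i
      rw [conj_pow, hx₀, hiter])
    have e : Z ^ r ^ (v - 1) = (⟨y, hyT⟩ : T) ^ ∑ _i ∈ Finset.range m, m' * q ^ m := by
      rw [hZ, ← Finset.prod_pow, ← Finset.prod_pow_eq_pow_sum]
      refine Finset.prod_congr rfl fun i hi => ?_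
      rw [← pow_mul, mul_comm, pow_mul, hy', ← pow_mul, mul_left_comm, ← pow_add,
        show i + (m - i) = m by have := Finset.mem_range.1 hi; omega]
    rw [← Subgroup.coe_pow, e, Subgroup.coe_pow]
    show y ^ _ = y
    conv_rhs => rw [← pow_one y]
    refine pow_eq_pow_of_modEq ?_ hyr
    rw [Finset.sum_const, Finset.card_range, smul_eq_mul, ← mul_assoc]
    have h1 : q ^ m ≡ 1 [MOD r] :=
      (((Nat.modEq_iff_dvd' (Nat.one_le_pow _ _ hq)).2 ((dvd_pow_self r hv.ne').trans hqm))).symm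
    have h2 : m * m' ≡ 1 [MOD r] := by rw [Nat.ModEq, hm', Nat.one_mod_eq_one.2 hr.out.one_lt.ne']
    simpa using h2.mul h1

/-- Lang: the twisted torus embeds in the group over the finite field. -/
theorem twist_embeds {F : Type*} [Field F] [Fintype F] (C : SmithCert) (hC : SmithOk D G.tab C)
    (hl : C.s.length = D.rank) {k : ℕ} (hco : Nat.Coprime k C.s.prod) {n : GL D.Idx (AlgebraicClosure F)}
    (hn : n ∈ D.monomialSubgroup (AlgebraicClosure F)) :
    ∃ f : ↥(twist G n (Fintype.card F) k) →* ↥(D.group F), Function.Injective f := by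
  set q := Fintype.card F
  obtain ⟨σ, hσ, hfix⟩ := exists_frobenius F
  obtain ⟨h, hh, hhn⟩ := lang G Fintype.one_lt_card (σ := (σ : AlgebraicClosure F →+* AlgebraicClosure F))
    (fun x => hσ x) (inv_mem (G.monomial_le_group hn))
  have hσh : mapGL D (σ : AlgebraicClosure F →+* AlgebraicClosure F) h = h * n⁻¹ := by
    rw [← hhn, mul_inv_cancel_left]
  have hmem : ∀ y : ↥(twist G n q k),
      ∃ x : ↥(D.group F), mapGL D (algebraMap F (AlgebraicClosure F)) x = h * (y : GL D.Idx _) * h⁻¹ := fun y => by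
    obtain ⟨hyT, hyk, hyn⟩ := y.2
    have hσy : mapGL D (σ : AlgebraicClosure F →+* AlgebraicClosure F) (y : GL D.Idx _) = (y : GL D.Idx _) ^ q := by
      obtain ⟨z, hz⟩ := G.mem_diagonal.1 hyT
      rw [hz, mapGL_torus G, ← map_pow]
      exact congrArg _ (funext fun i => Units.ext (by simp [hσ]; rfl))
    obtain ⟨x, hx, hxe⟩ := mem_map_of_fixed G C hC hl _ _ (fun x => hfix x)
      (mul_mem (mul_mem hh (G.diagonal_le_group hyT)) (inv_mem hh)) (by
        rw [map_mul, map_mul, map_inv, hσh, hσy, ← hyn]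
        group) (m := k) (by rw [conj_pow, hyk, mul_one, mul_inv_cancel]) hco
    exact ⟨⟨x, hx⟩, hxe⟩
  choose f hf using hmem
  have hinj := mapGL_injective (D := D) (algebraMap F (AlgebraicClosure F))
  refine ⟨MonoidHom.mk' f fun a b => Subtype.ext (hinj ?_), fun a b e => Subtype.ext ?_⟩
  · rw [hf, Subgroup.coe_mul, Subgroup.coe_mul, map_mul, hf, hf]
    group
  · have e' : h * (a : GL D.Idx _) * h⁻¹ = h * (b : GL D.Idx _) * h⁻¹ := by
      rw [← hf, ← hf]; exact congrArg (fun x : ↥(D.group F) => mapGL D _ (x : GL D.Idx F)) e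
    exact mul_left_cancel (mul_right_cancel e')

/-- The socle of a subgroup of exponent `r ^ v` of the torus all of whose socle elements are powers. -/
theorem socle_bound_aux [IsAlgClosed K] {Γ : Type*} [Group Γ] [Finite Γ] {r v a q : ℕ} [hr : Fact r.Prime]
    (hv : 0 < v) (hqv : r ^ v ∣ q ^ orderOf (q : ZMod r) - 1) (hq : 1 ≤ q)
    (hW : ¬ r ∣ (G.finW D.rank).card) (hcard : (Nat.card Γ).factorization r = v * a)
    {n : GL D.Idx K} (hn : n ∈ D.monomialSubgroup K) (f : ↥(twist G n q (r ^ v)) →* Γ) (hf : Function.Injective f) :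
    Finite ↥(twist G n q r) ∧ Nat.card ↥(twist G n q r) ≤ r ^ a := by
  have hsub : ∀ y ∈ twist G n q r, y ∈ twist G n q (r ^ v) := fun y hy =>
    ⟨hy.1, by rw [show r ^ v = r * r ^ (v - 1) by rw [← pow_succ', Nat.sub_add_cancel hv], pow_mul, hy.2.1, one_pow],
      hy.2.2⟩
  haveI : Finite ↥(twist G n q (r ^ v)) := Finite.of_injective f hf
  refine socle_card_le hv (U := twist G n q (r ^ v)) (fun a ha b hb => G.diagonal_comm ha.1 hb.1) (fun x hx => hx.2.1)
    (fun y => ⟨fun hy => ⟨hsub y hy, hy.2.1⟩, fun hy => ⟨hy.1.1, hy.2, hy.1.2.2⟩⟩)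
    (fun y hy => exists_root_twist G hv hqv hq hn hW hy) fun k hk => ?_
  have hdvd : r ^ k ∣ Nat.card Γ := hk ▸ Subgroup.card_dvd_of_injective f hf
  exact le_of_le_of_eq ((hr.out.pow_dvd_iff_le_factorization Nat.card_pos.ne').1 hdvd) hcard

/-- The socle of the twisted torus is bounded by the `r`-part of the group order. -/
theorem socle_bound {F : Type*} [Field F] [Fintype F] (C : SmithCert) (hC : SmithOk D G.tab C)
    (hl : C.s.length = D.rank) {r v a : ℕ} [hr : Fact r.Prime] (hv : 0 < v)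
    (hqv : r ^ v ∣ Fintype.card F ^ orderOf (Fintype.card F : ZMod r) - 1) (hs : ¬ r ∣ C.s.prod)
    (hW : ¬ r ∣ (G.finW D.rank).card) (hcard : (Nat.card ↥(D.group F)).factorization r = v * a)
    {n : GL D.Idx (AlgebraicClosure F)} (hn : n ∈ D.monomialSubgroup (AlgebraicClosure F)) :
    Finite ↥(twist G n (Fintype.card F) r) ∧ Nat.card ↥(twist G n (Fintype.card F) r) ≤ r ^ a := by
  have hco : Nat.Coprime (r ^ v) C.s.prod := (hr.out.coprime_iff_not_dvd.2 hs).pow_left v
  obtain ⟨f, hf⟩ := twist_embeds G C hC hl hco hn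
  exact socle_bound_aux G hv hqv Fintype.card_pos hW hcard hn f hf

end Cfsg.Agent.H88.SylTorus
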